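import Cfsg.Agent.H276.IF.Mid
import Cfsg.Agent.H237.IF.MinFive
import Cfsg.Agent.H63.IF.MinIdx

/-!
# Minimal index in dimension 6, odd characteristic (helper63)
-/

set_option autoImplicit false

namespace Cfsg.Agent.H63.IF

open QuadraticMap Cfsg.Agent.LieClassical.OrthCore Cfsg.Agent.LieClassical.OrthTrans
open Cfsg.Agent.LieClassical.OrthFinite Cfsg.Agent.H75.OrthIdx
open Cfsg.Agent.H989.Gs.Gen Cfsg.Agent.H276.IF
open Cfsg.Agent.H112.Row2.OrthExt (QU)

variable {F V : Type*} [Field F] [AddCommGroup V] [Module F V] {Q : QuadraticForm F V}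

theorem isCompl_P1 (h2 : (2 : F) ≠ 0) {y : V} (hy : Q y ≠ 0) : IsCompl (P1 Q y) (Submodule.span F {y}) := by
  constructor
  · rw [Submodule.disjoint_def]
    intro x hx hx2
    obtain ⟨a, rfl⟩ := Submodule.mem_span_singleton.1 hx2
    rw [mem_P1, polar_smul_right, polar_self', smul_eq_mul] at hx
    rcases mul_eq_zero.1 hx with h | h
    · rw [h, zero_smul]
    · exact absurd h (mul_ne_zero h2 hy)
  · rw [codisjoint_iff, eq_top_iff]
    intro v _
    rw [Submodule.mem_sup]
    refine ⟨v - (polar Q y v / (2 * Q y)) • y, ?_, (polar Q y v / (2 * Q y)) • y,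
      Submodule.smul_mem _ _ (Submodule.mem_span_singleton_self y), sub_add_cancel _ _⟩
    show polar Q y _ = 0
    rw [polar_sub_right, polar_smul_right, polar_self', smul_eq_mul, div_mul_cancel₀ _ (mul_ne_zero h2 hy), sub_self]

theorem orth_P1 {y : V} : ∀ u ∈ P1 Q y, ∀ w ∈ Submodule.span F {y}, polar Q u w = 0 := by
  intro u hu w hw
  obtain ⟨a, rfl⟩ := Submodule.mem_span_singleton.1 hw
  rw [polar_smul_right, polar_comm, mem_P1.1 hu, smul_zero]

/-- the index bound goes up by one dimension -/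
theorem min_index_up [Finite F] [FiniteDimensional F V] (h2 : (2 : F) ≠ 0) (hQ : Nondeg Q)
    (h5 : 5 ≤ Module.finrank F V) (c : ℕ)
    (hc : ∀ y : V, Q y ≠ 0 → ∀ H : Subgroup ↥(E (QU Q (P1 Q y))), H ≠ ⊤ → c ≤ H.index)
    (K : Subgroup ↥(E Q)) (hK : K ≠ ⊤) : c ≤ K.index := by
  have hfE : Finite ↥(E Q) := finite_E Q
  -- a Siegel element outside `K`
  obtain ⟨u, w, hu, hw, hS⟩ : ∃ u w : V, Q u = 0 ∧ polar Q u w = 0 ∧ S Q u w ∉ K := by
    by_contra hcon
    push Not at hcon
    apply hK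
    have h1 : E Q ≤ K.map (E Q).subtype := by
      conv_lhs => rw [E]
      rw [Subgroup.closure_le]
      rintro _ ⟨u, v, hu, hv, rfl⟩
      refine ⟨S Q u v, hcon u v hu hv, ?_⟩
      rw [S_eq hu hv]
      rfl
    rw [eq_top_iff]
    intro x _
    obtain ⟨y, hy, hyx⟩ := h1 x.2
    have : y = x := Subtype.ext hyx
    rw [← this]; exact hy
  -- a nonsingular vector orthogonal to both
  obtain ⟨y, hy1, hy2, hy3⟩ : ∃ y : V, polar Q y u = 0 ∧ polar Q y w = 0 ∧ Q y ≠ 0 := by
    by_contra hcon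
    push Not at hcon
    have h1 := finrank_inf (Q := Q) (⊤ : Submodule F V) u
    have h3 := finrank_inf (Q := Q) (⊤ ⊓ P1 Q u : Submodule F V) w
    rw [finrank_top] at h1
    have hT : ∀ x ∈ (⊤ ⊓ P1 Q u ⊓ P1 Q w : Submodule F V), Q x = 0 := by
      rintro x ⟨⟨-, hx1⟩, hx2⟩
      apply hcon x
      · rw [polar_comm]; exact hx1
      · rw [polar_comm]; exact hx2
    have h4 := finrank_ts_le hQ hT
    omega
  have hcp := isCompl_P1 h2 hy3
  have ho := orth_P1 (Q := Q) (y := y)
  by_contra hlt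
  push Not at hlt
  have h4 : K.relIndex (EB Q (P1 Q y)) ≤ K.index := by
    rw [← Subgroup.relIndex_top_right K]
    exact Subgroup.relIndex_le_of_le_right le_top (by
      rw [Subgroup.relIndex_top_right]; exact Subgroup.index_ne_zero_of_finite)
  have h3 := EB_le_of hcp ho (hc y hy3) (X := K) (lt_of_le_of_lt h4 hlt)
  exact hS (h3 (Subgroup.subset_closure ⟨u, hy1, w, hy2, hu, hw, rfl⟩))

/-- dimension 6: every proper subgroup has index at least `q ^ 3` -/
theorem min_index_six [Finite F] [FiniteDimensional F V] (h2 : (2 : F) ≠ 0) (hQ : Nondeg Q)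
    (h6 : Module.finrank F V = 6) (K : Subgroup ↥(E Q)) (hK : K ≠ ⊤) : Nat.card F ^ 3 ≤ K.index := by
  apply min_index_up h2 hQ (by omega) _ _ K hK
  intro y hy H hH
  have h1 := Submodule.finrank_add_eq_of_isCompl (isCompl_P1 (Q := Q) h2 hy)
  rw [finrank_span_singleton (by rintro rfl; exact hy (map_zero _)), h6] at h1
  have hNs : Ns Q (P1 Q y) := by
    have := (ns_top hQ).inf h2 Submodule.mem_top hy
    rwa [top_inf_eq] at this
  exact Cfsg.Agent.H237.IF.min_index_five h2 (nondeg_QU hNs) (by omega) H hH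

end Cfsg.Agent.H63.IF
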